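import Mathlib
import Cfsg.Agent.Lib.Helper7.SL2Dickson1

set_option autoImplicit false
set_option linter.unusedSimpArgs false
set_option linter.unusedSectionVars false
set_option linter.unusedVariables false

/-! The strong form of Dickson's theorem on `SL₂(p)` inside subgroups of `SL₂(q)`. -/

namespace Cfsg.Agent.Lib.Helper7

open Matrix Subgroup Cfsg.Agent.Lib.Helper46

variable {F : Type*} [Field F] [Fintype F]

/-- two unipotent elements in general position in `H` yield two unipotent elements `x, y` of `H`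
with `tr (x y) - 2` a nonzero element of the prime field -/
theorem exists_good_pair (p : ℕ) [Fact p.Prime] [CharP F p] (hp : p ≠ 2)
    (H : Subgroup (SpecialLinearGroup (Fin 2) F)) {x y : SpecialLinearGroup (Fin 2) F}
    (hxH : x ∈ H) (hyH : y ∈ H) (hx : tr x = 2) (hy : tr y = 2) (hxy : tr (x * y) ≠ 2) :
    ∃ x' ∈ H, ∃ y' ∈ H, tr x' = 2 ∧ tr y' = 2 ∧ ∃ t : ZMod p, t ≠ 0 ∧
      tr (x' * y') = 2 + ZMod.castHom (dvd_refl p) F t := by
  obtain ⟨g, a, b, hgx, hgy, hab⟩ := exists_conj_uu_ll hx hy hxy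
  have hab0 : a * b ≠ 0 := by rw [hab]; exact sub_ne_zero.2 hxy
  have ha : a ≠ 0 := left_ne_zero_of_mul hab0
  have hb : b ≠ 0 := right_ne_zero_of_mul hab0
  set H' : Subgroup (SpecialLinearGroup (Fin 2) F) :=
    (H ⊔ center (SpecialLinearGroup (Fin 2) F)).comap (MulAut.conj g⁻¹).toMonoidHom with hH'
  have hmem : ∀ w, w ∈ H' ↔ g⁻¹ * w * g ∈ H ⊔ center (SpecialLinearGroup (Fin 2) F) := by
    intro w
    rw [hH', mem_comap]
    simp
  have hZ : center (SpecialLinearGroup (Fin 2) F) ≤ H' := by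
    intro z hz
    rw [hmem]
    apply (le_sup_right : center (SpecialLinearGroup (Fin 2) F) ≤ H ⊔ center _)
    have := (conj_mem_center_iff g⁻¹ z).2 hz
    simpa using this
  have huH : uu a ∈ H' := by
    rw [hmem, ← hgx]
    have : g⁻¹ * (g * x * g⁻¹) * g = x := by group
    rw [this]; exact (le_sup_left : H ≤ H ⊔ center _) hxH
  have hlH : ll b ∈ H' := by
    rw [hmem, ← hgy]
    have : g⁻¹ * (g * y * g⁻¹) * g = y := by group
    rw [this]; exact (le_sup_left : H ≤ H ⊔ center _) hyH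
  obtain ⟨x', hx', y', hy', tx, ty, t, ht, htr⟩ := core_pair p hp H' hZ ha hb huH hlH
  have trc : ∀ w : SpecialLinearGroup (Fin 2) F, tr (g⁻¹ * w * g) = tr w := by
    intro w
    have := tr_conj g⁻¹ w
    simpa using this
  refine ⟨g⁻¹ * x' * g, mem_of_mem_sup_center p hp ((hmem x').1 hx') (by rw [trc, tx]),
    g⁻¹ * y' * g, mem_of_mem_sup_center p hp ((hmem y').1 hy') (by rw [trc, ty]),
    by rw [trc, tx], by rw [trc, ty], t, ht, ?_⟩
  have e : g⁻¹ * x' * g * (g⁻¹ * y' * g) = g⁻¹ * (x' * y') * g := by group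
  rw [e, trc, htr]

omit [Fintype F] in
theorem mulVec_two (A : SpecialLinearGroup (Fin 2) F) (x y : F) :
    A.1 *ᵥ ![x, y] = ![A.1 0 0 * x + A.1 0 1 * y, A.1 1 0 * x + A.1 1 1 * y] := by
  ext i
  fin_cases i <;> simp [Matrix.mulVec, dotProduct, Fin.sum_univ_two]

/-- Strong form: `H` contains a `GL₂`-conjugate of the pair `[1 1; 0 1]`, `[1 0; 1 1]`. -/
theorem dickson_strong' (p : ℕ) [Fact p.Prime] [CharP F p] (hp : p ≠ 2)
    (H : Subgroup (SpecialLinearGroup (Fin 2) F)) {x y : SpecialLinearGroup (Fin 2) F}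
    (hxH : x ∈ H) (hyH : y ∈ H) (hx : tr x = 2) (hy : tr y = 2) (hxy : tr (x * y) ≠ 2) :
    ∃ s ∈ H, ∃ t ∈ H, ∃ v w : Fin 2 → F, Matrix.det (Matrix.of ![v, w]) ≠ 0 ∧
      s.1 *ᵥ v = v ∧ s.1 *ᵥ w = w + v ∧ t.1 *ᵥ v = v + w ∧ t.1 *ᵥ w = w := by
  obtain ⟨x', hx'H, y', hy'H, tx, ty, t, ht, htr⟩ := exists_good_pair p hp H hxH hyH hx hy hxy
  have hinj : Function.Injective (ZMod.castHom (dvd_refl p) F) := RingHom.injective _
  have ht' : ZMod.castHom (dvd_refl p) F t ≠ 0 := by
    intro h; apply ht; apply hinj; rw [h, map_zero]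
  have hne : tr (x' * y') ≠ 2 := by
    rw [htr]; intro h; apply ht'; linear_combination h
  obtain ⟨g, a, b, hgx, hgy, hab⟩ := exists_conj_uu_ll tx ty hne
  rw [htr] at hab
  have hab' : a * b = ZMod.castHom (dvd_refl p) F t := by linear_combination hab
  have hb : b ≠ 0 := by
    rintro rfl; rw [mul_zero] at hab'; exact ht' hab'.symm
  have hs : x' ^ (t⁻¹).val = g⁻¹ * uu (1 / b) * g := by
    have hx'' : x' = g⁻¹ * uu a * g := by rw [← hgx]; group
    have h1 : x' ^ (t⁻¹).val = g⁻¹ * (uu a) ^ (t⁻¹).val * g := by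
      rw [hx'']
      have := conj_pow (a := g⁻¹) (b := uu a) (i := (t⁻¹).val)
      simpa using this
    rw [h1, uu_pow, ← cast_eq_val p (F := F)]
    congr 3
    have h3 : ZMod.castHom (dvd_refl p) F t⁻¹ * ZMod.castHom (dvd_refl p) F t = 1 := by
      rw [← map_mul, inv_mul_cancel₀ ht, map_one]
    rw [← hab'] at h3
    rw [eq_div_iff hb]
    linear_combination h3
  have ht2 : y' = g⁻¹ * ll b * g := by rw [← hgy]; group
  have hd := det2 g
  refine ⟨x' ^ (t⁻¹).val, H.pow_mem hx'H _, y', hy'H, ![g.1 1 1 / b, -g.1 1 0 / b],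
    ![-g.1 0 1, g.1 0 0], ?_, ?_, ?_, ?_, ?_⟩
  · rw [Matrix.det_fin_two]
    simp only [Matrix.of_apply, Matrix.cons_val_zero, Matrix.cons_val_one]
    have : g.1 1 1 / b * g.1 0 0 - -g.1 1 0 / b * -g.1 0 1 = 1 / b := by
      field_simp; linear_combination hd
    rw [this]
    exact one_div_ne_zero hb
  · rw [hs, mulVec_two]
    simp only [mul_00, mul_01, mul_10, mul_11, inv_00, inv_01, inv_10, inv_11, uu, mk2_00, mk2_01,
      mk2_10, mk2_11]
    congr 1
    · field_simp; linear_combination (g.1 1 1 * b) * hd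
    · congr 1; field_simp; linear_combination (- g.1 1 0 * b) * hd
  · rw [hs, mulVec_two]
    simp only [mul_00, mul_01, mul_10, mul_11, inv_00, inv_01, inv_10, inv_11, uu, mk2_00, mk2_01,
      mk2_10, mk2_11, Matrix.cons_add_cons, Matrix.empty_add_empty]
    congr 1
    · field_simp; linear_combination (g.1 1 1 - b * g.1 0 1) * hd
    · congr 1; field_simp; linear_combination (- g.1 1 0 + b * g.1 0 0) * hd
  · rw [ht2, mulVec_two]
    simp only [mul_00, mul_01, mul_10, mul_11, inv_00, inv_01, inv_10, inv_11, ll, mk2_00, mk2_01,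
      mk2_10, mk2_11, Matrix.cons_add_cons, Matrix.empty_add_empty]
    congr 1
    · field_simp; linear_combination (g.1 1 1 - b * g.1 0 1) * hd
    · congr 1; field_simp; linear_combination (- g.1 1 0 + b * g.1 0 0) * hd
  · rw [ht2, mulVec_two]
    simp only [mul_00, mul_01, mul_10, mul_11, inv_00, inv_01, inv_10, inv_11, ll, mk2_00, mk2_01,
      mk2_10, mk2_11]
    congr 1
    · linear_combination (- g.1 0 1) * hd
    · congr 1; linear_combination (g.1 0 0) * hd

/-- Strong form of Dickson's theorem with explicit upper and lower unitriangular elements. -/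
theorem dickson_strong (p : ℕ) [Fact p.Prime] [CharP F p] (hp : p ≠ 2)
    (H : Subgroup (SpecialLinearGroup (Fin 2) F)) (a b : F) (ha : a ≠ 0) (hb : b ≠ 0)
    (u l : SpecialLinearGroup (Fin 2) F) (hu : u.1 = !![1, a; 0, 1]) (hl : l.1 = !![1, 0; b, 1])
    (huH : u ∈ H) (hlH : l ∈ H) :
    ∃ s ∈ H, ∃ t ∈ H, ∃ v w : Fin 2 → F, Matrix.det (Matrix.of ![v, w]) ≠ 0 ∧
      s.1 *ᵥ v = v ∧ s.1 *ᵥ w = w + v ∧ t.1 *ᵥ v = v + w ∧ t.1 *ᵥ w = w := by
  have hu' : u = uu a := Subtype.ext hu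
  have hl' : l = ll b := Subtype.ext hl
  subst hu' hl'
  apply dickson_strong' p hp H huH hlH (tr_uu a) (tr_ll b)
  rw [tr_uu_mul, tr_ll]
  simp only [ll, mk2_10]
  intro h
  have : a * b = 0 := by linear_combination h
  exact mul_ne_zero ha hb this

end Cfsg.Agent.Lib.Helper7
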